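import Mathlib
import Cfsg.Agent.Lib.helper7.Balance
import Cfsg.Agent.Lib.helper7.Sig

set_option linter.style.haveILetI false
set_option linter.unusedSectionVars false

namespace Cfsg.Agent.Lib.helper7

open Subgroup Cfsg.Agent.Lib.helper8 Cfsg.Agent.Lib.helper9

universe u

theorem pPrimePCore_characteristic (p : ℕ) (X : Type u) [Group X] :
    (Cfsg.pPrimePCore p X).Characteristic := by
  rw [Subgroup.characteristic_iff_map_le]
  intro φ
  have hOc : (Cfsg.pPrimeCore p X).Characteristic := pPrimeCore_characteristic p X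
  have he : (Cfsg.pPrimeCore p X).map (φ : X →* X) = Cfsg.pPrimeCore p X :=
    Subgroup.characteristic_iff_map_eq.mp hOc φ
  let φb := QuotientGroup.congr (Cfsg.pPrimeCore p X) (Cfsg.pPrimeCore p X) φ he
  have h1 : (Cfsg.pCore p (X ⧸ Cfsg.pPrimeCore p X)).map φb.toMonoidHom ≤
      Cfsg.pCore p (X ⧸ Cfsg.pPrimeCore p X) := rad_map_equiv (radHyp_pGroup p) φb
  rintro _ ⟨x, hx, rfl⟩
  have hx' : QuotientGroup.mk' (Cfsg.pPrimeCore p X) x ∈
      Cfsg.pCore p (X ⧸ Cfsg.pPrimeCore p X) := hx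
  have h2 := h1 ⟨_, hx', rfl⟩
  exact h2

theorem le_normalizer_map_subtype_of_char {G : Type u} [Group G] {K : Subgroup G}
    (N : Subgroup K) [hN : N.Characteristic] :
    normalizer (K : Set G) ≤ normalizer ((N.map K.subtype : Subgroup G) : Set G) := by
  apply le_normalizer_of_conj_mem
  rintro a ha _ ⟨n, hn, rfl⟩
  have h1 := (Subgroup.characteristic_iff_map_le.mp hN) (K.normalizerMonoidHom ⟨a, ha⟩)
  have h2 : (K.normalizerMonoidHom ⟨a, ha⟩) n ∈ N := h1 ⟨n, hn, rfl⟩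
  exact ⟨_, h2, rfl⟩

theorem mem_of_coe_mem_map_subtype {G : Type u} [Group G] {K : Subgroup G} {N : Subgroup K}
    {y : K} (h : (y : G) ∈ N.map K.subtype) : y ∈ N := by
  obtain ⟨z, hz, hzy⟩ := h
  have : z = y := Subtype.ext hzy
  rwa [← this]

/-- S1288. -/
theorem le_core_of_hyperplane_commutators {H : Type u} [Group H] [Finite H] (p : ℕ)
    [hp : Fact p.Prime] (A K : Subgroup H) (hA : Cfsg.IsElementaryAbelian p A)
    (hA2 : p ^ 2 ≤ Nat.card ↥A) (hK : ¬ p ∣ Nat.card ↥K) (hKs : Group.IsSolvable ↥K)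
    (hAK : A ≤ Subgroup.normalizer (K : Set H)) (q : ℕ) [hq : Fact q.Prime]
    (U : Subgroup H) (hU : U ≤ K) (hUq : ¬ q ∣ Nat.card ↥U)
    (hcomm : ∀ B : Subgroup H, B ≤ A → B.relIndex A = p →
      ¬ q ∣ Nat.card ↥⁅U, K ⊓ Subgroup.centralizer (B : Set H)⁆) :
    U ≤ (Cfsg.pPrimeCore q ↥K).map K.subtype := by
  haveI := hA.1
  set O' : Subgroup H := (Cfsg.pPrimeCore q ↥K).map K.subtype with hO'
  set P₁' : Subgroup H := (Cfsg.pPrimePCore q ↥K).map K.subtype with hP₁'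
  have hA1 : A ≠ ⊥ := by
    intro h
    rw [h, Subgroup.card_bot] at hA2
    have : 1 < p ^ 2 := Nat.one_lt_pow (by norm_num) hp.out.one_lt
    omega
  have hP₁K : P₁' ≤ K := Subgroup.map_subtype_le _
  have hO'K : O' ≤ K := Subgroup.map_subtype_le _
  haveI hc1 : (Cfsg.pPrimePCore q ↥K).Characteristic := pPrimePCore_characteristic q ↥K
  have hAP₁ : A ≤ normalizer (P₁' : Set H) :=
    hAK.trans (le_normalizer_map_subtype_of_char _)
  -- O' and P₁' are normal in K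
  have hOn : ∀ k ∈ K, ∀ o ∈ O', k * o * k⁻¹ ∈ O' := by
    rintro k hk _ ⟨o, ho, rfl⟩
    have hn : (Cfsg.pPrimeCore q ↥K).Normal := inferInstance
    exact ⟨⟨k, hk⟩ * o * ⟨k, hk⟩⁻¹, hn.conj_mem o ho ⟨k, hk⟩, rfl⟩
  have hPn : ∀ k ∈ K, ∀ o ∈ P₁', k * o * k⁻¹ ∈ P₁' := by
    rintro k hk _ ⟨o, ho, rfl⟩
    have hn : (Cfsg.pPrimePCore q ↥K).Normal := inferInstance
    exact ⟨⟨k, hk⟩ * o * ⟨k, hk⟩⁻¹, hn.conj_mem o ho ⟨k, hk⟩, rfl⟩
  let T : Subgroup H :=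
    { carrier := {x | x ∈ K ∧ ∀ u ∈ U, x * u * x⁻¹ * u⁻¹ ∈ O'}
      one_mem' := ⟨one_mem _, fun u _ => by simp⟩
      mul_mem' := by
        rintro x y ⟨hx, hx2⟩ ⟨hy, hy2⟩
        refine ⟨mul_mem hx hy, fun u hu => ?_⟩
        have e : x * y * u * (x * y)⁻¹ * u⁻¹ =
            (x * (y * u * y⁻¹ * u⁻¹) * x⁻¹) * (x * u * x⁻¹ * u⁻¹) := by group
        rw [e]
        exact mul_mem (hOn x hx _ (hy2 u hu)) (hx2 u hu)
      inv_mem' := by
        rintro x ⟨hx, hx2⟩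
        refine ⟨inv_mem hx, fun u hu => ?_⟩
        have e : x⁻¹ * u * x⁻¹⁻¹ * u⁻¹ = x⁻¹ * (x * u * x⁻¹ * u⁻¹)⁻¹ * x⁻¹⁻¹ := by group
        rw [e]
        exact hOn x⁻¹ (inv_mem hx) _ (inv_mem (hx2 u hu)) }
  have hTmem : ∀ x, x ∈ T ↔ x ∈ K ∧ ∀ u ∈ U, x * u * x⁻¹ * u⁻¹ ∈ O' := fun x => Iff.rfl
  have hcop : (Nat.card A).Coprime (Nat.card P₁') :=
    ea_coprime hA (fun h => hK (h.trans (Subgroup.card_dvd_of_le hP₁K)))
  have hP₁T : P₁' ≤ T := by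
    apply gen_main A P₁' hAP₁ hcop
    intro B hB ⟨a, ha, hBa⟩
    obtain ⟨D, hD1, hD2⟩ := exists_hyperplane_le (ea_isPGroup hA) hA1 hB
      (ea_card_dvd hA hB ha hBa)
    have hW := hcomm D (hD1.trans hB) hD2
    intro x hx
    obtain ⟨hx1, hx2⟩ := Subgroup.mem_inf.mp hx
    rw [hTmem]
    refine ⟨hP₁K hx1, fun u hu => ?_⟩
    have hxD : x ∈ K ⊓ centralizer (D : Set H) :=
      Subgroup.mem_inf.mpr ⟨hP₁K hx1, Subgroup.centralizer_le hD1 hx2⟩
    have hmemW : x * u * x⁻¹ * u⁻¹ ∈ ⁅U, K ⊓ centralizer (D : Set H)⁆ := by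
      rw [Subgroup.commutator_comm]
      exact Subgroup.commutator_mem_commutator hxD hu
    have hord : (orderOf (x * u * x⁻¹ * u⁻¹)).Coprime q := by
      have h4 : orderOf (x * u * x⁻¹ * u⁻¹) ∣
          Nat.card (⁅U, K ⊓ centralizer (D : Set H)⁆ : Subgroup H) := by
        have := orderOf_dvd_natCard
          (⟨_, hmemW⟩ : (⁅U, K ⊓ centralizer (D : Set H)⁆ : Subgroup H))
        rwa [← Subgroup.orderOf_coe] at this
      exact Nat.Coprime.coprime_dvd_left h4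
        ((Nat.Prime.coprime_iff_not_dvd hq.out).mpr hW).symm
    have hmemP : x * u * x⁻¹ * u⁻¹ ∈ P₁' := by
      have e : x * u * x⁻¹ * u⁻¹ = x * (u * x⁻¹ * u⁻¹) := by group
      rw [e]
      exact mul_mem hx1 (hPn u (hU hu) _ (inv_mem hx1))
    have hmemK : x * u * x⁻¹ * u⁻¹ ∈ K := hP₁K hmemP
    have h5 : (⟨x * u * x⁻¹ * u⁻¹, hmemK⟩ : K) ∈ Cfsg.pPrimePCore q ↥K :=
      mem_of_coe_mem_map_subtype hmemP
    have h6 : (orderOf (⟨x * u * x⁻¹ * u⁻¹, hmemK⟩ : K)).Coprime q := by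
      rw [← Subgroup.orderOf_coe]; exact hord
    exact ⟨_, mem_core_of_mem_pPrimePCore h5 h6, rfl⟩
  have hfin : U.subgroupOf K ≤ Cfsg.pPrimeCore q ↥K := by
    apply le_core_of_commutator_le (p := q) pLayer_eq_bot_of_solvable
    · rw [card_subgroupOf_of_le hU]
      exact ((Nat.Prime.coprime_iff_not_dvd hq.out).mpr hUq).symm
    · intro x hx u hu
      have h1 : (x : H) ∈ T := hP₁T ⟨x, hx, rfl⟩
      have h2 := ((hTmem _).mp h1).2 (u : H) (mem_subgroupOf.mp hu)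
      exact mem_of_coe_mem_map_subtype (y := x * u * x⁻¹ * u⁻¹) h2
  intro u hu
  exact ⟨⟨u, hU hu⟩, hfin (mem_subgroupOf.mpr hu), rfl⟩

end Cfsg.Agent.Lib.helper7
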