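import Mathlib
import Cfsg.Agent.Lib.helper7.PComp
import Cfsg.Agent.Lib.helper7.PComp3
import Cfsg.Agent.Lib.helper8.CoprimeAction
import Cfsg.Agent.Lib.helper9.PPrimeCore

set_option autoImplicit false
open scoped commutatorElement

namespace Cfsg.Agent.Lib.helper7

open Subgroup Cfsg.Agent.Lib.helper8

universe u

theorem pow_coprime_mem {G : Type*} [Group G] (H : Subgroup G) (x : G) {a b : ℕ}
    (hab : a.Coprime b) (ha : x ^ a ∈ H) (hb : x ^ b ∈ H) : x ∈ H := by
  have h := Nat.gcd_eq_gcd_ab a b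
  rw [Nat.Coprime.gcd_eq_one hab] at h
  have e : x = (x ^ a) ^ (Nat.gcdA a b) * (x ^ b) ^ (Nat.gcdB a b) := by
    rw [← zpow_natCast, ← zpow_natCast, ← zpow_mul, ← zpow_mul, ← zpow_add, ← h]; simp
  rw [e]; exact H.mul_mem (H.zpow_mem ha _) (H.zpow_mem hb _)

/-- The product of the conjugates `x^i g x^{-i}` for `1 ≤ i ≤ k`. -/
def conjProd {G : Type*} [Group G] (x g : G) : ℕ → G
  | 0 => 1
  | (k + 1) => conjProd x g k * (x ^ (k + 1) * g * (x ^ (k + 1))⁻¹)

theorem conjProd_succ {G : Type*} [Group G] (x g : G) (k : ℕ) :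
    conjProd x g (k + 1) = conjProd x g k * (x ^ (k + 1) * g * (x ^ (k + 1))⁻¹) := rfl

theorem conjProd_conj {G : Type*} [Group G] (x g : G) (k : ℕ) :
    x * conjProd x g k * x⁻¹ = (x * g * x⁻¹)⁻¹ * conjProd x g (k + 1) := by
  induction k with
  | zero =>
    show x * 1 * x⁻¹ = (x * g * x⁻¹)⁻¹ * (1 * (x ^ 1 * g * (x ^ 1)⁻¹))
    rw [pow_one]; group
  | succ k ih =>
    have hy : x ^ (k + 1 + 1) = x * x ^ (k + 1) := pow_succ' x (k + 1)
    have e : x * conjProd x g (k + 1) * x⁻¹ =
        (x * conjProd x g k * x⁻¹) * (x ^ (k + 1 + 1) * g * (x ^ (k + 1 + 1))⁻¹) := by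
      rw [conjProd_succ, hy]
      generalize x ^ (k + 1) = y
      generalize conjProd x g k = A
      group
    rw [e, ih, conjProd_succ x g (k + 1), mul_assoc]

theorem conjProd_conj_of_commute {G : Type*} [Group G] (x g w : G) (hw : w * x = x * w)
    (k : ℕ) : w * conjProd x g k * w⁻¹ = conjProd x (w * g * w⁻¹) k := by
  induction k with
  | zero => simp [conjProd]
  | succ k ih =>
    have hwy : w * x ^ (k + 1) = x ^ (k + 1) * w :=
      ((show Commute w x from hw).pow_right (k + 1)).eq
    rw [conjProd_succ, conjProd_succ, ← ih]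
    generalize x ^ (k + 1) = y at hwy ⊢
    generalize conjProd x g k = A
    calc w * (A * (y * g * y⁻¹)) * w⁻¹ = (w * A * w⁻¹) * ((w * y) * g * (w * y)⁻¹) := by group
      _ = (w * A * w⁻¹) * ((y * w) * g * (y * w)⁻¹) := by rw [hwy]
      _ = w * A * w⁻¹ * (y * (w * g * w⁻¹) * y⁻¹) := by group

theorem conjProd_mem {G : Type*} [Group G] (x g : G) (S : Subgroup G) (k : ℕ)
    (h : ∀ i, 1 ≤ i → i ≤ k → x ^ i * g * (x ^ i)⁻¹ ∈ S) : conjProd x g k ∈ S := by
  induction k with
  | zero => exact S.one_mem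
  | succ k ih =>
    rw [conjProd_succ]
    exact S.mul_mem (ih (fun i h1 h2 => h i h1 (by omega))) (h (k + 1) (by omega) le_rfl)

theorem conjProd_mul {G : Type*} [Group G] (x g h : G) (k : ℕ)
    (hc : ∀ i j, 1 ≤ i → i < j → j ≤ k →
      Commute (x ^ j * g * (x ^ j)⁻¹) (x ^ i * h * (x ^ i)⁻¹)) :
    conjProd x (g * h) k = conjProd x g k * conjProd x h k := by
  induction k with
  | zero => simp [conjProd]
  | succ k ih =>
    have ih' := ih (fun i j h1 h2 h3 => hc i j h1 h2 (by omega))
    have hmem : conjProd x h k ∈ centralizer ({x ^ (k + 1) * g * (x ^ (k + 1))⁻¹} : Set G) := by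
      apply conjProd_mem
      intro i h1 h2
      rw [mem_centralizer_iff]
      intro s hs
      rw [Set.mem_singleton_iff] at hs
      rw [hs]
      exact (hc i (k + 1) h1 (by omega) le_rfl).eq
    have hcomm : conjProd x h k * (x ^ (k + 1) * g * (x ^ (k + 1))⁻¹) =
        (x ^ (k + 1) * g * (x ^ (k + 1))⁻¹) * conjProd x h k :=
      ((mem_centralizer_iff.mp hmem) _ rfl).symm
    rw [conjProd_succ, conjProd_succ, conjProd_succ, ih']
    generalize x ^ (k + 1) = y at hcomm ⊢
    generalize conjProd x g k = A at hcomm ⊢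
    generalize conjProd x h k = B at hcomm ⊢
    calc A * B * (y * (g * h) * y⁻¹) = A * (B * (y * g * y⁻¹)) * (y * h * y⁻¹) := by group
      _ = A * ((y * g * y⁻¹) * B) * (y * h * y⁻¹) := by rw [hcomm]
      _ = A * (y * g * y⁻¹) * (B * (y * h * y⁻¹)) := by group

theorem mem_normalizer_of_map_conj_eq {G : Type*} [Group G] (L : Subgroup G) (g : G)
    (h : L.map (MulAut.conj g).toMonoidHom = L) : g ∈ normalizer (L : Set G) := by
  rw [mem_normalizer_iff]
  intro y
  constructor
  · intro hy
    have : g * y * g⁻¹ ∈ L.map (MulAut.conj g).toMonoidHom := ⟨y, hy, rfl⟩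
    rwa [h] at this
  · intro hy
    rw [← h] at hy
    obtain ⟨y', hy', he⟩ := hy
    have he' : g * y' * g⁻¹ = g * y * g⁻¹ := he
    have : y' = y := by
      have := mul_right_cancel he'
      exact mul_left_cancel this
    rw [← this]; exact hy'

/-- A conjugate of a component by an element outside its normalizer centralizes it. -/
theorem comp_conj_mem_centralizer {G : Type*} [Group G] [Finite G] {L : Subgroup G}
    (hL : Cfsg.IsComponent L) (g : G) (hg : g ∉ normalizer (L : Set G)) :
    ∀ l ∈ L, g * l * g⁻¹ ∈ centralizer (L : Set G) := by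
  intro l hl
  have hcomp : Cfsg.IsComponent (L.map (MulAut.conj g).toMonoidHom) :=
    comp_map_equiv (MulAut.conj g) hL
  have hne : L.map (MulAut.conj g).toMonoidHom ≠ L :=
    fun h => hg (mem_normalizer_of_map_conj_eq L g h)
  have := comp_comm_of_ne hcomp hL hne
  rw [Subgroup.commutator_eq_bot_iff_le_centralizer] at this
  exact this ⟨l, hl, rfl⟩

/-- A quasisimple subgroup centralizes `A` as soon as `[L, A]` centralizes `L`. -/
theorem comp_comm_of_commutator_le_centralizer {G : Type*} [Group G] {L : Subgroup G}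
    (hL : Cfsg.IsComponent L) (A : Subgroup G) (hA : ⁅L, A⁆ ≤ centralizer (L : Set G)) :
    ⁅L, A⁆ = ⊥ := by
  have hperf : ⁅L, L⁆ = L := Subgroup.isPerfect_iff.mp hL.2.1
  have h1 : ⁅⁅L, A⁆, L⁆ = ⊥ := Subgroup.commutator_eq_bot_iff_le_centralizer.mpr hA
  have h2 : ⁅⁅A, L⁆, L⁆ = ⊥ := by rw [Subgroup.commutator_comm A L]; exact h1
  have h3 := Subgroup.commutator_commutator_eq_bot_of_rotate h1 h2
  rwa [hperf] at h3

/-- The diagonal of a component `L` moved by an element `x` of prime order `p` is a component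
of `C_G(x)`. -/
theorem diag_component {G : Type u} [Group G] [Finite G] (p : ℕ) [hp : Fact p.Prime] (x : G)
    (hxp : x ^ p = 1) (L : Subgroup G) (hL : Cfsg.IsComponent L)
    (hH0 : ∀ i, 1 ≤ i → i ≤ p - 1 → ∀ l ∈ L, x ^ i * l * (x ^ i)⁻¹ ∈ centralizer (L : Set G)) :
    ∃ f : ↥L →* ↥(centralizer ({x} : Set G)),
      (∀ l : ↥L, ((f l : ↥(centralizer ({x} : Set G))) : G) = (l : G) * conjProd x (l : G) (p - 1)) ∧
      Cfsg.IsComponent f.range ∧ f.ker ≤ center ↥L := by
  classical
  have hp1 : p - 1 + 1 = p := Nat.sub_add_cancel hp.out.one_le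
  have hM : ∀ l ∈ L, conjProd x l (p - 1) ∈ centralizer (L : Set G) := fun l hl =>
    conjProd_mem x l _ _ (fun i h1 h2 => hH0 i h1 h2 l hl)
  have hcx : ∀ l ∈ L, x * (l * conjProd x l (p - 1)) = (l * conjProd x l (p - 1)) * x := by
    intro l hl
    have hlM : l * conjProd x l (p - 1) = conjProd x l (p - 1) * l :=
      (mem_centralizer_iff.mp (hM l hl)) l hl
    have e1 := conjProd_conj x l (p - 1)
    rw [conjProd_succ, hp1, hxp, one_mul, inv_one, mul_one, ← hlM] at e1
    calc x * (l * conjProd x l (p - 1))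
        = (x * l * x⁻¹) * (x * conjProd x l (p - 1) * x⁻¹) * x := by group
      _ = (l * conjProd x l (p - 1)) * x := by rw [e1]; group
  have hmul : ∀ a b : G, a ∈ L → b ∈ L → (a * b) * conjProd x (a * b) (p - 1) =
      (a * conjProd x a (p - 1)) * (b * conjProd x b (p - 1)) := by
    intro a b ha hb
    have hc : ∀ i j, 1 ≤ i → i < j → j ≤ p - 1 →
        Commute (x ^ j * a * (x ^ j)⁻¹) (x ^ i * b * (x ^ i)⁻¹) := by
      intro i j h1 h2 h3
      have hj : x ^ j = x ^ i * x ^ (j - i) := by rw [← pow_add, Nat.add_sub_cancel' h2.le]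
      have ht := hH0 (j - i) (by omega) (by omega) a ha
      have hbt := (mem_centralizer_iff.mp ht) b hb
      rw [hj]
      show _ * _ = _ * _
      generalize x ^ i = y
      generalize x ^ (j - i) = t at hbt
      calc y * t * a * (y * t)⁻¹ * (y * b * y⁻¹) = y * ((t * a * t⁻¹) * b) * y⁻¹ := by group
        _ = y * (b * (t * a * t⁻¹)) * y⁻¹ := by rw [hbt]
        _ = y * b * y⁻¹ * (y * t * a * (y * t)⁻¹) := by group
    rw [conjProd_mul x a b (p - 1) hc]
    have hb' : b * conjProd x a (p - 1) = conjProd x a (p - 1) * b :=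
      (mem_centralizer_iff.mp (hM a ha)) b hb
    generalize conjProd x a (p - 1) = A at hb' ⊢
    generalize conjProd x b (p - 1) = B
    calc a * b * (A * B) = a * (b * A) * B := by group
      _ = a * (A * b) * B := by rw [hb']
      _ = a * A * (b * B) := by group
  have hmemC : ∀ l : ↥L, (l : G) * conjProd x (l : G) (p - 1) ∈ centralizer ({x} : Set G) := by
    intro l
    rw [mem_centralizer_iff]
    intro s hs
    rw [Set.mem_singleton_iff] at hs
    rw [hs]
    exact hcx l l.2
  let f : ↥L →* ↥(centralizer ({x} : Set G)) := MonoidHom.mk'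
    (fun l => ⟨(l : G) * conjProd x (l : G) (p - 1), hmemC l⟩)
    (fun a b => Subtype.ext (hmul a b a.2 b.2))
  have hf : ∀ l : ↥L, ((f l : ↥(centralizer ({x} : Set G))) : G) =
      (l : G) * conjProd x (l : G) (p - 1) := fun l => rfl
  have hker : f.ker ≤ center ↥L := by
    intro l hl
    rw [MonoidHom.mem_ker] at hl
    have h1 : (l : G) * conjProd x (l : G) (p - 1) = 1 := by
      rw [← hf l, hl]; rfl
    have h2 : (l : G) = (conjProd x (l : G) (p - 1))⁻¹ := eq_inv_of_mul_eq_one_left h1
    have h3 : (l : G) ∈ centralizer (L : Set G) := by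
      rw [h2]; exact Subgroup.inv_mem _ (hM l l.2)
    rw [Subgroup.mem_center_iff]
    intro g
    exact Subtype.ext ((mem_centralizer_iff.mp h3) g g.2)
  refine ⟨f, hf, ⟨?_, ?_⟩, hker⟩
  · -- subnormal
    have hle : f.range ≤ (Cfsg.layer G).subgroupOf (centralizer ({x} : Set G)) := by
      rintro _ ⟨l, rfl⟩
      rw [Subgroup.mem_subgroupOf, hf]
      refine Subgroup.mul_mem _ (comp_le_layer hL l.2) ?_
      apply conjProd_mem
      intro i _ _
      exact (layer_normal (G := G)).conj_mem _ (comp_le_layer hL l.2) _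
    have hnorm : (f.range.subgroupOf
        ((Cfsg.layer G).subgroupOf (centralizer ({x} : Set G)))).Normal := by
      rw [Subgroup.normal_subgroupOf_iff_le_normalizer hle]
      apply le_normalizer_of_conj_mem
      rintro c hc _ ⟨l, rfl⟩
      rw [Subgroup.mem_subgroupOf] at hc
      have hcN : (c : G) ∈ normalizer (L : Set G) := layer_le_normalizer_comp hL hc
      have hcx' : (c : G) * x = x * (c : G) :=
        ((mem_centralizer_iff.mp c.2) x rfl).symm
      refine ⟨⟨(c : G) * (l : G) * (c : G)⁻¹, conj_mem_of_mem_normalizer hcN l.2⟩, ?_⟩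
      apply Subtype.ext
      rw [hf]
      simp only [Subgroup.coe_mul, Subgroup.coe_inv, hf]
      rw [← conjProd_conj_of_commute x (l : G) (c : G) hcx' (p - 1)]
      group
    exact Subgroup.IsSubnormal.step _ _ hle (Subgroup.Normal.isSubnormal inferInstance) hnorm
  · -- quasisimple
    refine qs_of_surjective_central_ker f.rangeRestrict f.rangeRestrict_surjective ?_ hL.2
    rw [MonoidHom.ker_rangeRestrict]; exact hker

end Cfsg.Agent.Lib.helper7
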