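import Mathlib
import Cfsg.Agent.Lib.helper7.ExtLayer

namespace Cfsg.Agent.Lib.helper7

open Subgroup

universe u

section

variable {X : Type u} [Group X] [Finite X] {p : ℕ}

/-- `L_{p'}(X) O_{p',p}(X) = L_{p'}(X) O_{p'}(X) T` for a Sylow `p`-subgroup `T` of the left side. -/
theorem pLayerCore_le_sup_sylow [hp : Fact p.Prime]
    (T : Sylow p ↥(Cfsg.pLayer p X ⊔ Cfsg.pPrimePCore p X)) :
    Cfsg.pLayer p X ⊔ Cfsg.pPrimePCore p X ≤
      Cfsg.pLayer p X ⊔ Cfsg.pPrimeCore p X ⊔ sylImg T := by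
  have hNM : Cfsg.pLayer p X ⊔ Cfsg.pPrimeCore p X ≤ Cfsg.pLayer p X ⊔ Cfsg.pPrimePCore p X :=
    sup_le_sup le_rfl (pPrimeCore_le_pPrimePCore p X)
  have hN'n : ((Cfsg.pLayer p X ⊔ Cfsg.pPrimeCore p X).subgroupOf
      (Cfsg.pLayer p X ⊔ Cfsg.pPrimePCore p X)).Normal := inferInstance
  have hpow : ∀ m : ↥(Cfsg.pLayer p X ⊔ Cfsg.pPrimePCore p X), ∃ k : ℕ,
      m ^ p ^ k ∈ (Cfsg.pLayer p X ⊔ Cfsg.pPrimeCore p X).subgroupOf
        (Cfsg.pLayer p X ⊔ Cfsg.pPrimePCore p X) := by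
    intro m
    obtain ⟨a, ha, r, hr, har⟩ := Subgroup.mem_sup_of_normal_left.mp m.2
    obtain ⟨k, hk⟩ := pCore_isPGroup p (X ⧸ Cfsg.pPrimeCore p X)
      ⟨QuotientGroup.mk' (Cfsg.pPrimeCore p X) r, hr⟩
    have hrk : r ^ p ^ k ∈ Cfsg.pPrimeCore p X := by
      rw [← QuotientGroup.eq_one_iff]
      have := congrArg Subtype.val hk
      simpa using this
    refine ⟨k, ?_⟩
    show ((m ^ p ^ k : ↥(Cfsg.pLayer p X ⊔ Cfsg.pPrimePCore p X)) : X) ∈
      Cfsg.pLayer p X ⊔ Cfsg.pPrimeCore p X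
    rw [Subgroup.coe_pow, ← har]
    have h2 : (r ^ p ^ k)⁻¹ * (a * r) ^ p ^ k ∈ Cfsg.pLayer p X := by
      rw [← QuotientGroup.eq_one_iff]
      show QuotientGroup.mk' (Cfsg.pLayer p X) ((r ^ p ^ k)⁻¹ * (a * r) ^ p ^ k) = 1
      rw [map_mul, map_inv, map_pow, map_pow, map_mul,
        show QuotientGroup.mk' (Cfsg.pLayer p X) a = 1 from (QuotientGroup.eq_one_iff a).mpr ha,
        one_mul, inv_mul_cancel]
    have h3 : (a * r) ^ p ^ k = r ^ p ^ k * ((r ^ p ^ k)⁻¹ * (a * r) ^ p ^ k) := by group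
    rw [h3]
    exact mul_mem (mem_sup_right hrk) (mem_sup_left h2)
  have hpg : IsPGroup p (↥(Cfsg.pLayer p X ⊔ Cfsg.pPrimePCore p X) ⧸
      (Cfsg.pLayer p X ⊔ Cfsg.pPrimeCore p X).subgroupOf
        (Cfsg.pLayer p X ⊔ Cfsg.pPrimePCore p X)) := by
    intro x
    obtain ⟨m, rfl⟩ := QuotientGroup.mk_surjective x
    obtain ⟨k, hk⟩ := hpow m
    exact ⟨k, by rw [← QuotientGroup.mk_pow]; exact (QuotientGroup.eq_one_iff _).mpr hk⟩
  have hsurj := QuotientGroup.mk'_surjective ((Cfsg.pLayer p X ⊔ Cfsg.pPrimeCore p X).subgroupOf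
    (Cfsg.pLayer p X ⊔ Cfsg.pPrimePCore p X))
  have h1 := Sylow.coe_mapSurjective hsurj T
  have h2 := IsPGroup.le_sylow_of_normal (hpg.to_subgroup ⊤) (T.mapSurjective hsurj)
  rw [h1, top_le_iff] at h2
  have h3 := Subgroup.comap_map_eq (QuotientGroup.mk' ((Cfsg.pLayer p X ⊔
    Cfsg.pPrimeCore p X).subgroupOf (Cfsg.pLayer p X ⊔ Cfsg.pPrimePCore p X)))
    (T : Subgroup ↥(Cfsg.pLayer p X ⊔ Cfsg.pPrimePCore p X))
  rw [h2, Subgroup.comap_top, QuotientGroup.ker_mk'] at h3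
  intro x hx
  have hx' : (⟨x, hx⟩ : ↥(Cfsg.pLayer p X ⊔ Cfsg.pPrimePCore p X)) ∈
      (T : Subgroup ↥(Cfsg.pLayer p X ⊔ Cfsg.pPrimePCore p X)) ⊔
        (Cfsg.pLayer p X ⊔ Cfsg.pPrimeCore p X).subgroupOf
          (Cfsg.pLayer p X ⊔ Cfsg.pPrimePCore p X) := by rw [← h3]; trivial
  have h4 : x ∈ ((T : Subgroup ↥(Cfsg.pLayer p X ⊔ Cfsg.pPrimePCore p X)) ⊔
      (Cfsg.pLayer p X ⊔ Cfsg.pPrimeCore p X).subgroupOf
        (Cfsg.pLayer p X ⊔ Cfsg.pPrimePCore p X)).map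
          (Cfsg.pLayer p X ⊔ Cfsg.pPrimePCore p X).subtype := ⟨⟨x, hx⟩, hx', rfl⟩
  rw [Subgroup.map_sup, Subgroup.subgroupOf_map_subtype] at h4
  rw [sup_comm]
  have h5 : sylImg T ⊔ (Cfsg.pLayer p X ⊔ Cfsg.pPrimeCore p X) ⊓
      (Cfsg.pLayer p X ⊔ Cfsg.pPrimePCore p X) ≤
      sylImg T ⊔ (Cfsg.pLayer p X ⊔ Cfsg.pPrimeCore p X) := sup_le_sup le_rfl inf_le_left
  exact h5 h4

theorem coreCent_conj_le [hp : Fact p.Prime]
    (T : Sylow p ↥(Cfsg.pLayer p X ⊔ Cfsg.pPrimePCore p X)) {m : X}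
    (hm : m ∈ Cfsg.pLayer p X ⊔ Cfsg.pPrimePCore p X) :
    (coreOf p (centralizer (sylImg T : Set X))).map (MulAut.conj m).toMonoidHom ≤
      Cfsg.pLayer p X ⊔ Cfsg.pPrimeCore p X ⊔ coreOf p (centralizer (sylImg T : Set X)) := by
  have hNn : (Cfsg.pLayer p X ⊔ Cfsg.pPrimeCore p X).Normal := inferInstance
  obtain ⟨n, hn, t, ht, rfl⟩ := Subgroup.mem_sup_of_normal_left.mp (pLayerCore_le_sup_sylow T hm)
  have hT't : (sylImg T).map (MulAut.conj t).toMonoidHom = sylImg T :=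
    Subgroup.mem_normalizer_iff_map_conj_eq.mp (Subgroup.le_normalizer ht)
  rintro _ ⟨d, hd, rfl⟩
  have hd' : t * d * t⁻¹ ∈ coreOf p (centralizer (sylImg T : Set X)) := by
    have := coreCent_map_eq p (MulAut.conj t) (sylImg T)
    rw [hT't] at this
    rw [← this]
    exact ⟨d, hd, rfl⟩
  have h1 : (MulAut.conj (n * t)).toMonoidHom d =
      (n * ((t * d * t⁻¹) * n⁻¹ * (t * d * t⁻¹)⁻¹)) * (t * d * t⁻¹) := by
    show n * t * d * (n * t)⁻¹ = _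
    group
  rw [h1]
  exact mul_mem (mem_sup_left (mul_mem hn (hNn.conj_mem n⁻¹ (inv_mem hn) _))) (mem_sup_right hd')

end

section

variable {X : Type u} [Group X] [Finite X]

/-- `L*_{2'}(X) = L_{2'}(X) O(X) O(C_X(T))` for any Sylow 2-subgroup `T` of `L_{2'}(X) O_{2',2}(X)`. -/
theorem extLayer_eq (T : Sylow 2 ↥(Cfsg.pLayer 2 X ⊔ Cfsg.pPrimePCore 2 X)) :
    Cfsg.extendedTwoLayer X = Cfsg.pLayer 2 X ⊔ Cfsg.oddCore X ⊔
      coreOf 2 (centralizer (sylImg T : Set X)) := by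
  unfold Cfsg.extendedTwoLayer
  apply le_antisymm
  · refine sup_le le_sup_left (iSup_le fun T₂ => ?_)
    obtain ⟨m, hm, hconj⟩ := sylImg_conj T T₂
    show coreOf 2 (centralizer (sylImg T₂ : Set X)) ≤ _
    rw [hconj, ← coreCent_map_eq]
    exact coreCent_conj_le T hm
  · exact sup_le_sup le_rfl
      (le_iSup (fun T₂ : Sylow 2 ↥(Cfsg.pLayer 2 X ⊔ Cfsg.pPrimePCore 2 X) =>
        coreOf 2 (centralizer (sylImg T₂ : Set X))) T)

instance extendedTwoLayer_normal : (Cfsg.extendedTwoLayer X).Normal := by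
  have hC : (⨆ T : Sylow 2 ↥(Cfsg.pLayer 2 X ⊔ Cfsg.pPrimePCore 2 X),
      coreOf 2 (centralizer (sylImg T : Set X))).Normal := by
    constructor
    intro n hn g
    have h1 : (⨆ T : Sylow 2 ↥(Cfsg.pLayer 2 X ⊔ Cfsg.pPrimePCore 2 X),
        coreOf 2 (centralizer (sylImg T : Set X))).map (MulAut.conj g).toMonoidHom ≤
        ⨆ T : Sylow 2 ↥(Cfsg.pLayer 2 X ⊔ Cfsg.pPrimePCore 2 X),
          coreOf 2 (centralizer (sylImg T : Set X)) := by
      rw [Subgroup.map_iSup]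
      apply iSup_le
      intro T
      obtain ⟨T₂, hT₂⟩ := sylImg_conjNormal g T
      rw [coreCent_map_eq, ← hT₂]
      exact le_iSup (fun T₂ : Sylow 2 ↥(Cfsg.pLayer 2 X ⊔ Cfsg.pPrimePCore 2 X) =>
        coreOf 2 (centralizer (sylImg T₂ : Set X))) T₂
    exact h1 ⟨n, hn, rfl⟩
  have hAB : (Cfsg.pLayer 2 X ⊔ Cfsg.oddCore X).Normal := inferInstance
  unfold Cfsg.extendedTwoLayer
  exact @Subgroup.sup_normal _ _ _ _ hAB hC

/-- `L*_{2'}(X) = L_{2'}(X) F` with `F` of odd order normalized by a Sylow 2-subgroup. -/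
theorem extLayer_odd_sup : ∃ F : Subgroup X, Odd (Nat.card ↥F) ∧
    (∃ S : Sylow 2 X, (S : Subgroup X) ≤ normalizer (F : Set X)) ∧
    Cfsg.extendedTwoLayer X = Cfsg.pLayer 2 X ⊔ F := by
  let T : Sylow 2 ↥(Cfsg.pLayer 2 X ⊔ Cfsg.pPrimePCore 2 X) := default
  have hMn : (Cfsg.pLayer 2 X ⊔ Cfsg.pPrimePCore 2 X).Normal := inferInstance
  refine ⟨Cfsg.oddCore X ⊔ coreOf 2 (centralizer (sylImg T : Set X)), ?_, ?_, ?_⟩
  · have hD : (Nat.card ↥(coreOf 2 (centralizer (sylImg T : Set X)))).Coprime 2 := by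
      unfold coreOf
      rw [Subgroup.card_map_of_injective (Subgroup.subtype_injective _)]
      exact Cfsg.Agent.Lib.helper9.pPrimeCore_coprime 2 _
    have := Cfsg.Agent.Lib.helper9.card_sup_coprime
      (A := coreOf 2 (centralizer (sylImg T : Set X))) (B := Cfsg.oddCore X) hD
      (Cfsg.Agent.Lib.helper9.pPrimeCore_coprime 2 X)
    rw [sup_comm] at this
    exact Nat.Coprime.odd_of_right this
  · have hTp : IsPGroup 2 ↥(sylImg T) := T.isPGroup'.map _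
    obtain ⟨S, hS⟩ := hTp.exists_le_sylow
    refine ⟨S, ?_⟩
    intro s hs
    rw [Subgroup.mem_normalizer_iff_map_conj_eq]
    have hT's : (sylImg T).map (MulAut.conj s).toMonoidHom = sylImg T := by
      have hle : (sylImg T).map (MulAut.conj s).toMonoidHom ≤ sylImg T := by
        have h1 : (sylImg T).map (MulAut.conj s).toMonoidHom ≤
            (S : Subgroup X) ⊓ (Cfsg.pLayer 2 X ⊔ Cfsg.pPrimePCore 2 X) := by
          rintro _ ⟨t, ht, rfl⟩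
          refine mem_inf.mpr ⟨?_, ?_⟩
          · exact mul_mem (mul_mem hs (hS ht)) (inv_mem hs)
          · exact hMn.conj_mem t (Subgroup.map_subtype_le _ ht) s
        have h2 : (S : Subgroup X) ⊓ (Cfsg.pLayer 2 X ⊔ Cfsg.pPrimePCore 2 X) ≤ sylImg T := by
          have hpg : IsPGroup 2 ↥(((S : Subgroup X) ⊓
              (Cfsg.pLayer 2 X ⊔ Cfsg.pPrimePCore 2 X)).subgroupOf
                (Cfsg.pLayer 2 X ⊔ Cfsg.pPrimePCore 2 X)) :=
            (S.isPGroup'.to_le inf_le_left).comap_subtype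
          have hge : (T : Subgroup ↥(Cfsg.pLayer 2 X ⊔ Cfsg.pPrimePCore 2 X)) ≤
              ((S : Subgroup X) ⊓ (Cfsg.pLayer 2 X ⊔ Cfsg.pPrimePCore 2 X)).subgroupOf
                (Cfsg.pLayer 2 X ⊔ Cfsg.pPrimePCore 2 X) := by
            intro t ht
            exact mem_inf.mpr ⟨hS ⟨t, ht, rfl⟩, t.2⟩
          have heq := T.is_maximal' hpg hge
          intro x hx
          have hxM : x ∈ Cfsg.pLayer 2 X ⊔ Cfsg.pPrimePCore 2 X := (mem_inf.mp hx).2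
          have hx2 : (⟨x, hxM⟩ : ↥(Cfsg.pLayer 2 X ⊔ Cfsg.pPrimePCore 2 X)) ∈
              ((S : Subgroup X) ⊓ (Cfsg.pLayer 2 X ⊔ Cfsg.pPrimePCore 2 X)).subgroupOf
                (Cfsg.pLayer 2 X ⊔ Cfsg.pPrimePCore 2 X) := hx
          rw [heq] at hx2
          exact ⟨⟨x, hxM⟩, hx2, rfl⟩
        exact h1.trans h2
      exact Subgroup.eq_of_le_of_card_ge hle
        (le_of_eq (Subgroup.card_map_of_injective (MulAut.conj s).injective).symm)
    have h5 : (Cfsg.oddCore X).map (MulAut.conj s).toMonoidHom = Cfsg.oddCore X :=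
      Subgroup.Normal.map_conj_eq _ s
    have h6 := coreCent_map_eq 2 (MulAut.conj s) (sylImg T)
    rw [hT's] at h6
    show (Cfsg.oddCore X ⊔ coreOf 2 (centralizer (sylImg T : Set X))).map
      (MulAut.conj s).toMonoidHom = _
    rw [Subgroup.map_sup, h5, h6]
  · rw [extLayer_eq T, sup_assoc]

end

end Cfsg.Agent.Lib.helper7
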