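import Mathlib
import Cfsg.Agent.Lib.helper25.AlperinGoldschmidt
import Cfsg.Agent.Lib.helper26.Frattini

set_option autoImplicit false

/-! Subsystems of index prime to `p`: the Frattini decomposition `F = Aut_F(S) ∘ E`. -/

namespace Cfsg.Agent.Lib.helper7.PPrimeIdx

open Cfsg Cfsg.FusionSystem Cfsg.Agent.Lib.helper26

universe u

variable {Ω : Type u} [Group Ω] {S : Subgroup Ω}

/-- the decomposition property: `φ ∘ α` is an automorphism of `S` in `F` after a map of `E`,
for every automorphism `α` of `S` in `F` -/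
def Dec (F E : FusionSystem S) (P : Subgroup Ω) (φ : P →* Ω) : Prop :=
  ∀ α ∈ F.autGroup S, ∀ (P' : Subgroup Ω) (hP' : P' ≤ S)
    (hα : ∀ y : P', ((α ⟨y, hP' y.2⟩ : S) : Ω) ∈ P),
    ∃ α' ∈ F.autGroup S, ∃ φ₀ ∈ E.Hom P', ∀ y : P', ∃ hS : φ₀ y ∈ S,
      φ ⟨_, hα y⟩ = ((α' ⟨φ₀ y, hS⟩ : S) : Ω)

theorem dec_res (F E : FusionSystem S) {U V : Subgroup Ω} {φ : V →* Ω} (h : U ≤ V)
    (hφ : Dec F E V φ) : Dec F E U (φ.comp (Subgroup.inclusion h)) := by
  intro α hα P' hP' hαP
  obtain ⟨α', hα', φ₀, hφ₀, hx⟩ := hφ α hα P' hP' (fun y => h (hαP y))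
  exact ⟨α', hα', φ₀, hφ₀, fun y => hx y⟩

theorem dec_comp (F E : FusionSystem S) {U V : Subgroup Ω} {φ : U →* Ω} {ψ : V →* Ω}
    (h : ∀ x, φ x ∈ V) (h1 : Dec F E U φ) (h2 : Dec F E V ψ) :
    Dec F E U (ψ.comp (φ.codRestrict V h)) := by
  intro α hα P' hP' hαP
  obtain ⟨α₁, hα₁, φ₀, hφ₀, hx₁⟩ := h1 α hα P' hP' hαP
  have hrS : φ₀.range ≤ S := by
    rintro _ ⟨y, rfl⟩
    exact (E.le_of_mem hφ₀).2 y
  have hα₁V : ∀ z : φ₀.range, ((α₁ ⟨z, hrS z.2⟩ : S) : Ω) ∈ V := by
    rintro ⟨_, y, rfl⟩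
    obtain ⟨hS, e⟩ := hx₁ y
    have h3 : ((α₁ ⟨φ₀ y, hrS ⟨y, rfl⟩⟩ : S) : Ω) = φ ⟨_, hαP y⟩ := e.symm
    rw [h3]
    exact h _
  obtain ⟨α₂, hα₂, ψ₀, hψ₀, hx₂⟩ := h2 α₁ hα₁ φ₀.range hrS hα₁V
  refine ⟨α₂, hα₂, ψ₀.comp (φ₀.codRestrict φ₀.range (fun y => ⟨y, rfl⟩)),
    E.comp_mem hφ₀ hψ₀ _, fun y => ?_⟩
  obtain ⟨hS₁, e₁⟩ := hx₁ y
  obtain ⟨hS₂, e₂⟩ := hx₂ ⟨φ₀ y, ⟨y, rfl⟩⟩
  refine ⟨hS₂, ?_⟩
  refine Eq.trans ?_ e₂
  show ψ ⟨φ ⟨_, hαP y⟩, _⟩ = ψ ⟨_, _⟩
  congr 1
  apply Subtype.ext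
  exact e₁

theorem dec_one (F E : FusionSystem S) {W : Subgroup Ω} (hW : W ≤ S) :
    Dec F E W W.subtype := by
  intro α hα P' hP' hαP
  exact ⟨α, hα, P'.subtype, subtype_mem E hP', fun y => ⟨hP' y.2, rfl⟩⟩

/-- automorphisms of `p`-power order of a centric subgroup -/
theorem dec_ppow {p : ℕ} (F E : FusionSystem S)
    (h : ∀ P : Subgroup Ω, F.IsCentric P →
      (Subgroup.closure {α : ↥(F.autGroup P) | ∃ k : ℕ, orderOf α = p ^ k}).map
        (F.autGroup P).subtype ≤ E.autGroup P)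
    {W : Subgroup Ω} (hW : F.IsCentric W) (κ : F.autGroup W) (k : ℕ) (hκ : orderOf κ = p ^ k) :
    Dec F E W (W.subtype.comp (κ : MulAut W).toMonoidHom) := by
  intro α hα P' hP' hαP
  have hWS := hW.1
  obtain ⟨W', hW'⟩ : ∃ W' : Subgroup Ω,
      W' = ((W.subgroupOf S).comap α.toMonoidHom).map S.subtype := ⟨_, rfl⟩
  have hW'S : W' ≤ S := by rw [hW']; exact Subgroup.map_subtype_le _
  have hmemW' : ∀ w : Ω, w ∈ W' ↔ ∃ hw : w ∈ S, ((α ⟨w, hw⟩ : S) : Ω) ∈ W := by
    intro w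
    rw [hW']
    constructor
    · rintro ⟨s, hs, rfl⟩
      exact ⟨s.2, hs⟩
    · rintro ⟨hw, h1⟩
      exact ⟨⟨w, hw⟩, h1, rfl⟩
  have hαF : S.subtype.comp α.toMonoidHom ∈ F.Hom S := (mem_autGroup_iff F le_rfl α).1 hα
  have hφW' := restrict_mem F hαF hW'S
  have hrange : ((S.subtype.comp α.toMonoidHom).comp (Subgroup.inclusion hW'S)).range = W := by
    ext w
    constructor
    · rintro ⟨x, rfl⟩
      exact ((hmemW' x).1 x.2).2
    · intro hw
      have h1 : ((α.symm ⟨w, hWS hw⟩ : S) : Ω) ∈ W' :=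
        (hmemW' _).2 ⟨(α.symm ⟨w, hWS hw⟩).2, by simpa using hw⟩
      refine ⟨⟨_, h1⟩, ?_⟩
      show ((α (Subgroup.inclusion hW'S ⟨_, h1⟩) : S) : Ω) = w
      have h2 : Subgroup.inclusion hW'S ⟨_, h1⟩ = α.symm ⟨w, hWS hw⟩ := Subtype.ext rfl
      rw [h2, MulEquiv.apply_symm_apply]
  obtain ⟨e, he, hex⟩ := exists_iso_of_mem F hφW' hrange
  have hW'c : F.IsCentric W' := by
    refine ⟨hW'S, fun Q hQ => hW.2 Q ?_⟩
    exact isConj_trans F ((isConj_iff_exists_iso F).2 ⟨e.symm, he.symm⟩) hQ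
  have hκ'A : MulAut.congr e.symm (κ : MulAut W) ∈ F.autGroup W' := he.symm.congr_mem κ.2
  have hord : orderOf (⟨_, hκ'A⟩ : F.autGroup W') = p ^ k := by
    rw [Subgroup.orderOf_mk, MulEquiv.orderOf_eq, ← hκ, Subgroup.orderOf_coe]
  have hκ'E : MulAut.congr e.symm (κ : MulAut W) ∈ E.autGroup W' :=
    h W' hW'c ⟨⟨_, hκ'A⟩, Subgroup.subset_closure ⟨k, hord⟩, rfl⟩
  have hκ'hom := (mem_autGroup_iff E hW'S _).1 hκ'E
  have hP'W' : P' ≤ W' := fun y hy => (hmemW' y).2 ⟨hP' hy, hαP ⟨y, hy⟩⟩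
  refine ⟨α, hα, _, restrict_mem E hκ'hom hP'W', fun y => ?_⟩
  refine ⟨hW'S (Subtype.mem _), ?_⟩
  have h1 : e ⟨y, hP'W' y.2⟩ = ⟨α ⟨y, hP' y.2⟩, hαP y⟩ := Subtype.ext (hex _)
  have h2 := hex (e.symm ((κ : MulAut W) (e ⟨y, hP'W' y.2⟩)))
  rw [MulEquiv.apply_symm_apply] at h2
  have h3 : (W.subtype.comp (κ : MulAut W).toMonoidHom) ⟨_, hαP y⟩ =
      (((κ : MulAut W) (e ⟨y, hP'W' y.2⟩) : W) : Ω) := by
    rw [h1]; rfl
  rw [h3, h2]
  rfl

/-- every map of a saturated system `F` is an automorphism of `S` in `F` after a map of `E`, if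
`E` contains the `p`-power order automorphisms in `F` of the `F`-centric subgroups -/
theorem dec_all [Finite S] {p : ℕ} [Fact p.Prime] (hS : IsPGroup p S) (F : FusionSystem S)
    (hF : F.IsSaturated p) (E : FusionSystem S)
    (h : ∀ P : Subgroup Ω, F.IsCentric P →
      (Subgroup.closure {α : ↥(F.autGroup P) | ∃ k : ℕ, orderOf α = p ^ k}).map
        (F.autGroup P).subtype ≤ E.autGroup P) :
    ∀ (U : Subgroup Ω) (φ : U →* Ω), φ ∈ F.Hom U → Dec F E U φ := by
  classical
  apply alperin_induction hS F hF (Dec F E)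
  · intro U V φ hUV _ hφ
    exact dec_res F E hUV hφ
  · intro U V φ ψ hV _ _ h1 h2
    exact dec_comp F E hV h1 h2
  · intro W hW IH γ hγ
    have hWS := hW.1
    by_cases hWtop : W = S
    · subst hWtop
      intro α hα P' hP' hαP
      exact ⟨γ * α, (F.autGroup W).mul_mem ((mem_autGroup_iff F le_rfl γ).2 hγ) hα, P'.subtype,
        subtype_mem E hP', fun y => ⟨hP' y.2, rfl⟩⟩
    have hrec := receptive_of_fullyNormalized hS F hF hW
    have hfa := fullyAutomized_of_fullyNormalized hS F hF hW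
    have good_of_ext : ∀ β : MulAut W, W.subtype.comp β.toMonoidHom ∈ F.Hom W →
        (∃ g ∈ extender S W (W.subtype.comp β.toMonoidHom), g ∉ W) →
        Dec F E W (W.subtype.comp β.toMonoidHom) := by
      rintro β hβ ⟨g, hg, hgW⟩
      have hrange : (W.subtype.comp β.toMonoidHom).range = W := by
        ext y
        constructor
        · rintro ⟨x, rfl⟩
          exact (β x).2
        · intro hy
          exact ⟨β.symm ⟨y, hy⟩, by simp⟩
      obtain ⟨ψ, hψ, hψx⟩ := hrec.2 W _ hβ hrange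
      have hle : W ≤ extender S W (W.subtype.comp β.toMonoidHom) :=
        le_extender hWS (fun x => hWS (β x).2)
      have hfin : Finite (extender S W (W.subtype.comp β.toMonoidHom)) :=
        finite_of_le ((extender_le _ _).trans inf_le_left)
      have hlt : Nat.card W < Nat.card (extender S W (W.subtype.comp β.toMonoidHom)) := by
        by_contra hcon
        have := Subgroup.eq_of_le_of_card_ge hle (not_lt.1 hcon)
        rw [← this] at hg
        exact hgW hg
      have h1 := dec_res F E hle (IH _ ψ hψ hlt)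
      have h2 : ψ.comp (Subgroup.inclusion hle) = W.subtype.comp β.toMonoidHom := by
        ext x
        exact hψx x x.2 (hle x.2)
      rwa [h2] at h1
    by_cases hcen : F.IsCentric W
    swap
    · have hnot : ¬ centralizerIn S W ≤ W :=
        fun h => hcen (Cfsg.Agent.Lib.helper25.centric_of_centralizerIn_le hS F hF hW h)
      obtain ⟨g, hg, hgW⟩ := SetLike.not_le_iff_exists.1 hnot
      exact good_of_ext γ hγ ⟨g, centralizerIn_le_extender hg, hgW⟩
    -- centric case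
    haveI : Finite W := finite_of_le hWS
    haveI : Finite (MulAut W) := Finite.of_injective (fun e : MulAut W => (e : W → W))
      (fun a b hab => MulEquiv.ext (congrFun hab))
    obtain ⟨-, R, hR⟩ := hfa
    have good_pow : ∀ a : F.autGroup W, Dec F E W (W.subtype.comp (a : MulAut W).toMonoidHom) →
        ∀ k : ℕ, Dec F E W (W.subtype.comp ((a ^ k : F.autGroup W) : MulAut W).toMonoidHom) := by
      intro a ha k
      induction k with
      | zero =>
        rw [pow_zero]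
        exact dec_one F E hWS
      | succ k ih =>
        have := dec_comp F E (fun x => ((a : MulAut W) x).2) ha ih
        rw [pow_succ]
        exact this
    let Mgood : Subgroup (F.autGroup W) :=
      { carrier := {a | Dec F E W (W.subtype.comp (a : MulAut W).toMonoidHom)}
        mul_mem' := by
          intro a b ha hb
          exact dec_comp F E (fun x => ((b : MulAut W) x).2) hb ha
        one_mem' := dec_one F E hWS
        inv_mem' := by
          intro a ha
          have h1 : a ^ (orderOf a - 1) = a⁻¹ := by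
            apply eq_inv_of_mul_eq_one_left
            rw [← pow_succ, Nat.sub_add_cancel (orderOf_pos a), pow_orderOf_eq_one]
          have := good_pow a ha (orderOf a - 1)
          rw [h1] at this
          exact this }
    obtain ⟨K, hKdef⟩ : ∃ K : Subgroup (F.autGroup W),
        K = Subgroup.closure {a : F.autGroup W | ∃ k : ℕ, orderOf a = p ^ k} := ⟨_, rfl⟩
    haveI hKn : K.Normal := by
      constructor
      intro n hn g
      rw [hKdef] at hn ⊢
      induction hn using Subgroup.closure_induction with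
      | mem x hx =>
        obtain ⟨k, hk⟩ := hx
        refine Subgroup.subset_closure ⟨k, ?_⟩
        rw [← hk]
        exact MulEquiv.orderOf_eq (MulAut.conj g) x
      | one => simp
      | mul x y _ _ hx hy =>
        have : g * (x * y) * g⁻¹ = (g * x * g⁻¹) * (g * y * g⁻¹) := by group
        rw [this]; exact Subgroup.mul_mem _ hx hy
      | inv x _ hx =>
        have : g * x⁻¹ * g⁻¹ = (g * x * g⁻¹)⁻¹ := by group
        rw [this]; exact Subgroup.inv_mem _ hx
    have hKM : K ≤ Mgood := by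
      rw [hKdef, Subgroup.closure_le]
      rintro a ⟨k, hk⟩
      exact dec_ppow F E h hcen a k hk
    have hRK : (R : Subgroup (F.autGroup W)) ≤ K := by
      intro a ha
      obtain ⟨k, hk⟩ := (IsPGroup.iff_orderOf.1 R.isPGroup') ⟨a, ha⟩
      rw [hKdef]
      refine Subgroup.subset_closure ⟨k, ?_⟩
      rw [← hk]
      exact (Subgroup.orderOf_mk a ha).symm
    have hfr := Sylow.normalizer_sup_eq_top (R.subtype hRK)
    have hmap : ((R.subtype hRK : Sylow p K) : Subgroup K).map K.subtype =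
        (R : Subgroup _) := by
      rw [Sylow.coe_subtype, Subgroup.subgroupOf_map_subtype]; exact inf_eq_left.2 hRK
    rw [hmap] at hfr
    have hγA : γ ∈ F.autGroup W := (mem_autGroup_iff F hWS γ).2 hγ
    have hγtop : (⟨γ, hγA⟩ : F.autGroup W) ∈
        Subgroup.normalizer ((R : Subgroup (F.autGroup W)) : Set (F.autGroup W)) ⊔ K := by
      rw [hfr]; trivial
    rw [Subgroup.mem_sup_of_normal_right] at hγtop
    obtain ⟨ν, hν, κ, hκ, hνκ⟩ := hγtop
    have hνX : ∀ (g : Ω) (hg : g ∈ normalizerIn S W),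
        (ν : MulAut W) * conjAut S W ⟨g, (le_refl (normalizerIn S W)) hg⟩ * (ν : MulAut W)⁻¹ ∈
          autInducedBy S W := by
      intro g hg
      have h1 : (⟨conjAut S W ⟨g, hg⟩, autInducedBy_le_autGroup F hWS
          (conjAut_mem_autInducedBy S W _)⟩ : F.autGroup W) ∈
          (R : Subgroup (F.autGroup W)) := by
        rw [hR]; exact conjAut_mem_autInducedBy S W _
      have h2 := (Subgroup.mem_normalizer_iff.1 hν _).1 h1
      rw [hR] at h2
      exact h2
    obtain ⟨Y, hWY, hXY, hYN, ψ, hψ, hψx⟩ :=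
      exists_extension_of_normalizes F hrec ν ν.2 (normalizerIn S W) le_rfl hνX
    haveI : Finite Y := finite_of_le (hYN.trans inf_le_left)
    have hcard : Nat.card W < Nat.card Y :=
      lt_of_lt_of_le (card_lt_card_normalizerIn hS hWS hWtop) (Subgroup.card_le_of_le hXY)
    have hνM : ν ∈ Mgood := by
      have h1 := dec_res F E hWY (IH Y ψ hψ hcard)
      have h2 : ψ.comp (Subgroup.inclusion hWY) = W.subtype.comp (ν : MulAut W).toMonoidHom := by
        ext x
        exact hψx x (hWY x.2)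
      rw [h2] at h1
      exact h1
    have h5 := Mgood.mul_mem hνM (hKM hκ)
    rw [hνκ] at h5
    exact h5

end Cfsg.Agent.Lib.helper7.PPrimeIdx
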