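import Mathlib
import Cfsg.Prelude.Def_CaseTheorems

set_option autoImplicit false

/-! The `p`-rank does not grow in a quotient by a normal `p'`-subgroup. -/

namespace Cfsg.Agent.Lib.helper7.PRankQuot

theorem pRankLE_quot {G : Type*} [Group G] [Finite G] {p k : ℕ} [Fact p.Prime] (N : Subgroup G)
    [N.Normal] (hN : (Nat.card N).Coprime p) (h : Cfsg.PRankLE p k G) :
    Cfsg.PRankLE p k (G ⧸ N) := by
  intro Abar hcomm hexp
  haveI := hcomm
  have hp : p.Prime := Fact.out
  -- the preimage of `Abar` and the induced surjection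
  obtain ⟨M, hM⟩ : ∃ M : Subgroup G, M = Abar.comap (QuotientGroup.mk' N) := ⟨_, rfl⟩
  have hMmem : ∀ x : M, QuotientGroup.mk' N (x : G) ∈ Abar := by
    intro x
    exact hM.le x.2
  obtain ⟨f, hf⟩ : ∃ f : M →* Abar, ∀ x : M, ((f x : Abar) : G ⧸ N) = QuotientGroup.mk' N (x : G) :=
    ⟨((QuotientGroup.mk' N).comp M.subtype).codRestrict Abar hMmem, fun x => rfl⟩
  have hfsurj : Function.Surjective f := by
    intro a
    obtain ⟨g, hg⟩ := QuotientGroup.mk'_surjective N (a : G ⧸ N)
    have hgM : g ∈ M := by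
      rw [hM]
      show QuotientGroup.mk' N g ∈ Abar
      rw [hg]; exact a.2
    exact ⟨⟨g, hgM⟩, Subtype.ext ((hf _).trans hg)⟩
  have hAp : IsPGroup p ↥Abar := by
    intro a
    refine ⟨1, ?_⟩
    rw [pow_one]
    exact Subtype.ext (hexp a a.2)
  -- a Sylow `p`-subgroup of `M`
  obtain ⟨S⟩ : Nonempty (Sylow p M) := inferInstance
  have hSp : IsPGroup p ↥(S : Subgroup M) := S.isPGroup'
  have hidx : ¬ p ∣ (S : Subgroup M).index := S.not_dvd_index
  -- its image is all of `Abar`
  have htop : (S : Subgroup M).map f = ⊤ := by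
    have h1 : ((S : Subgroup M).map f).index ∣ (S : Subgroup M).index :=
      Subgroup.index_map_dvd _ hfsurj
    obtain ⟨n, hn⟩ := hAp.index ((S : Subgroup M).map f)
    rw [hn] at h1
    have hn0 : n = 0 := by
      by_contra hne
      exact hidx ((dvd_pow_self p hne).trans h1)
    rw [hn0, pow_zero] at hn
    exact Subgroup.index_eq_one.1 hn
  -- the image of `S` in `G`
  obtain ⟨S', hS'⟩ : ∃ S' : Subgroup G, S' = (S : Subgroup M).map M.subtype := ⟨_, rfl⟩
  have hS'p : IsPGroup p ↥S' := by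
    rw [hS']; exact hSp.map _
  have hdisj : S' ⊓ N = ⊥ := by
    apply Subgroup.inf_eq_bot_of_coprime
    obtain ⟨n, hn⟩ := IsPGroup.iff_card.1 hS'p
    rw [hn]
    exact (Nat.Coprime.pow_right n hN).symm
  have hker : ∀ x ∈ S', QuotientGroup.mk' N x = 1 → x = 1 := by
    intro x hx h1
    have hxN : x ∈ N := (QuotientGroup.eq_one_iff x).1 h1
    have : x ∈ S' ⊓ N := ⟨hx, hxN⟩
    rw [hdisj] at this
    exact Subgroup.mem_bot.1 this
  have hS'M : ∀ x ∈ S', QuotientGroup.mk' N x ∈ Abar := by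
    intro x hx
    rw [hS'] at hx
    obtain ⟨y, -, rfl⟩ := hx
    exact hMmem y
  have hcommS : ∀ a ∈ S', ∀ b ∈ S', a * b = b * a := by
    intro a ha b hb
    have h1 : QuotientGroup.mk' N (a * b * (b * a)⁻¹) = 1 := by
      have e' : QuotientGroup.mk' N a * QuotientGroup.mk' N b =
          QuotientGroup.mk' N b * QuotientGroup.mk' N a :=
        setLike_mul_comm (hS'M a ha) (hS'M b hb)
      rw [map_mul, map_mul, map_inv, map_mul, e']
      group
    have h2 := hker _ (S'.mul_mem (S'.mul_mem ha hb) (S'.inv_mem (S'.mul_mem hb ha))) h1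
    exact mul_inv_eq_one.1 h2
  have hexpS : ∀ a ∈ S', a ^ p = 1 := by
    intro a ha
    apply hker _ (S'.pow_mem ha p)
    rw [map_pow]
    exact hexp _ (hS'M a ha)
  have hle := h S' ⟨⟨fun a b => Subtype.ext (hcommS a a.2 b b.2)⟩⟩ hexpS
  -- cardinalities
  have hc1 : Nat.card ↥Abar ≤ Nat.card ↥(S : Subgroup M) := by
    have : Nat.card ↥((S : Subgroup M).map f) ≤ Nat.card ↥(S : Subgroup M) :=
      Nat.le_of_dvd Nat.card_pos (Subgroup.card_map_dvd _ f)
    rw [htop, Subgroup.card_top] at this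
    exact this
  have hc2 : Nat.card ↥(S : Subgroup M) = Nat.card ↥S' := by
    rw [hS']
    exact (Subgroup.card_map_of_injective M.subtype_injective).symm
  exact (hc1.trans hc2.le).trans hle

end Cfsg.Agent.Lib.helper7.PRankQuot
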