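import Mathlib
import Cfsg.Agent.Lib.helper1.Solv
import Cfsg.Agent.Lib.helper1.Fitting

set_option autoImplicit false

/-! If the elements of `G'` of order prime to `q` centralize `O_q(G)` for every prime `q`
(`G` finite solvable), then `G' ≤ F(G)` and `G'` is nilpotent (piece (B) for S1451). -/

namespace Cfsg.Agent.Lib.helper7.S1451B

theorem commutator_le_fitting {G : Type*} [Group G] [Finite G] [Group.IsSolvable G]
    (h : ∀ q : ℕ, q.Prime → ∀ g ∈ commutator G, (orderOf g).Coprime q →
      g ∈ Subgroup.centralizer ((Cfsg.pCore q G : Subgroup G) : Set G)) :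
    commutator G ≤ Cfsg.fittingSubgroup G ∧ Group.IsNilpotent ↥(commutator G) := by
  classical
  have hFnil : Group.IsNilpotent ↥(Cfsg.fittingSubgroup G) :=
    Cfsg.Agent.Lib.helper1.fitting_isNilpotent G
  have hFeq := Cfsg.Agent.Lib.helper1.fitting_eq_iSup_pCore G
  have hCF := Cfsg.Agent.Lib.helper1.centralizer_fitting_le G
  -- `q`-elements of `G'` lie in `F(G)`
  have hqel : ∀ (q : ℕ), q.Prime → ∀ g ∈ commutator G, ∀ a : ℕ, g ^ (q ^ a) = 1 →
      g ∈ Cfsg.fittingSubgroup G := by
    intro q hqp g hg a hga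
    obtain ⟨Fq, hFq⟩ : ∃ Fq : Subgroup G,
        Fq = sSup {N : Subgroup G | ∃ p : ℕ, p.Prime ∧ p ≠ q ∧ N = Cfsg.pCore p G} := ⟨_, rfl⟩
    have hFqn : Fq.Normal := by
      rw [hFq]
      exact Subgroup.sSup_normal _ (by
        rintro _ ⟨p, -, -, rfl⟩
        exact Cfsg.Agent.Lib.helper1.pCore_normal p G)
    have hle : ∀ p : ℕ, p.Prime → p ≠ q → Cfsg.pCore p G ≤ Fq := by
      intro p hp hne
      rw [hFq]; exact le_sSup ⟨p, hp, hne, rfl⟩
    have hFsup : Cfsg.fittingSubgroup G ≤ Cfsg.pCore q G ⊔ Fq := by
      rw [hFeq]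
      apply iSup_le
      intro p
      by_cases hpq : (p : ℕ) = q
      · rw [hpq]; exact le_sup_left
      · exact le_sup_of_le_right (hle p p.2 hpq)
    have hcent : ∀ y : G, (∀ p : ℕ, p.Prime → p ≠ q →
        y ∈ Subgroup.centralizer ((Cfsg.pCore p G : Subgroup G) : Set G)) →
        y ∈ Subgroup.centralizer (Fq : Set G) := by
      intro y hy
      have h1 : Fq ≤ Subgroup.centralizer ({y} : Set G) := by
        rw [hFq]
        apply sSup_le
        rintro _ ⟨p, hp, hne, rfl⟩
        intro z hz
        rw [Subgroup.mem_centralizer_iff]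
        intro w hw
        rw [Set.mem_singleton_iff] at hw
        subst hw
        exact (Subgroup.mem_centralizer_iff.1 (hy p hp hne) z hz).symm
      rw [Subgroup.mem_centralizer_iff]
      intro z hz
      exact (Subgroup.mem_centralizer_iff.1 (h1 hz) y rfl).symm
    obtain ⟨L, hL⟩ : ∃ L : Subgroup G,
        L = commutator G ⊓ Subgroup.centralizer (Fq : Set G) := ⟨_, rfl⟩
    have hLn : L.Normal := by
      haveI := hFqn
      haveI : (Subgroup.centralizer (Fq : Set G)).Normal := Subgroup.normal_centralizer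
      rw [hL]; infer_instance
    -- elements of `L` of order prime to `q` are central in `L`
    have hcentral : ∀ x ∈ L, (orderOf x).Coprime q → ∀ y ∈ L, x * y = y * x := by
      intro x hx hxq y hy
      rw [hL] at hx hy
      have hxall : ∀ p : ℕ, p.Prime →
          x ∈ Subgroup.centralizer ((Cfsg.pCore p G : Subgroup G) : Set G) := by
        intro p hp
        by_cases hpq : p = q
        · rw [hpq]; exact h q hqp x hx.1 hxq
        · rw [Subgroup.mem_centralizer_iff]
          intro z hz
          exact Subgroup.mem_centralizer_iff.1 hx.2 z (hle p hp hpq hz)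
      have hxF : x ∈ Subgroup.centralizer ((Cfsg.fittingSubgroup G : Subgroup G) : Set G) := by
        have h1 : Cfsg.fittingSubgroup G ≤ Subgroup.centralizer ({x} : Set G) := by
          rw [hFeq]
          apply iSup_le
          intro p z hz
          rw [Subgroup.mem_centralizer_iff]
          intro w hw
          rw [Set.mem_singleton_iff] at hw
          subst hw
          exact (Subgroup.mem_centralizer_iff.1 (hxall p p.2) z hz).symm
        rw [Subgroup.mem_centralizer_iff]
        intro z hz
        exact (Subgroup.mem_centralizer_iff.1 (h1 hz) x rfl).symm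
      have hxF' : x ∈ Cfsg.pCore q G ⊔ Fq := hFsup (hCF hxF)
      have hxFq : x ∈ Fq := by
        haveI := hFqn
        have h2 : x ∈ ((Cfsg.pCore q G ⊔ Fq : Subgroup G) : Set G) := hxF'
        rw [Subgroup.mul_normal] at h2
        obtain ⟨a', ha', b, hb, hab⟩ := Set.mem_mul.1 h2
        have hb1 : (QuotientGroup.mk' Fq) b = 1 := (QuotientGroup.eq_one_iff b).2 hb
        obtain ⟨k, hk⟩ := (Cfsg.Agent.Lib.helper1.pCore_isPGroup q G) ⟨a', ha'⟩
        have hak : a' ^ (q ^ k) = 1 := congrArg Subtype.val hk
        have e1 : (QuotientGroup.mk' Fq x) ^ (q ^ k) = 1 := by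
          rw [← hab, map_mul, hb1, mul_one, ← map_pow, hak, map_one]
        have e2 : (QuotientGroup.mk' Fq x) ^ (orderOf x) = 1 := by
          rw [← map_pow, pow_orderOf_eq_one, map_one]
        have e3 := pow_gcd_eq_one.2 ⟨e2, e1⟩
        have hg1 : Nat.gcd (orderOf x) (q ^ k) = 1 := Nat.Coprime.pow_right k hxq
        rw [hg1, pow_one] at e3
        exact (QuotientGroup.eq_one_iff _).1 e3
      exact Subgroup.mem_centralizer_iff.1 hy.2 x hxFq
    -- `L / Z(L)` is a `q`-group, so `L` is nilpotent
    have hLnil : Group.IsNilpotent ↥L := by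
      haveI : Fact q.Prime := ⟨hqp⟩
      have hquot : IsPGroup q (↥L ⧸ Subgroup.center ↥L) := by
        intro xbar
        obtain ⟨x, rfl⟩ := QuotientGroup.mk'_surjective (Subgroup.center ↥L) xbar
        have hpos : orderOf x ≠ 0 := (orderOf_pos x).ne'
        obtain ⟨a', m, hm, hn⟩ := Nat.exists_eq_pow_mul_and_not_dvd hpos q hqp.ne_one
        refine ⟨a', ?_⟩
        rw [← map_pow]
        apply (QuotientGroup.eq_one_iff _).2
        rw [Subgroup.mem_center_iff]
        intro y
        have hxm : (x ^ (q ^ a')) ^ m = 1 := by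
          rw [← pow_mul, ← hn, pow_orderOf_eq_one]
        have hcop : (orderOf ((x ^ (q ^ a') : ↥L) : G)).Coprime q := by
          have hd : orderOf ((x ^ (q ^ a') : ↥L) : G) ∣ m := by
            apply orderOf_dvd_of_pow_eq_one
            have := congrArg Subtype.val hxm
            simpa using this
          exact Nat.Coprime.coprime_dvd_left hd ((Nat.Prime.coprime_iff_not_dvd hqp).2 hm).symm
        have := hcentral _ (x ^ (q ^ a')).2 hcop y y.2
        exact Subtype.ext this.symm
      haveI : Group.IsNilpotent (↥L ⧸ Subgroup.center ↥L) := hquot.isNilpotent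
      exact Subgroup.isNilpotent_of_ker_le_center (QuotientGroup.mk' (Subgroup.center ↥L))
        (by rw [QuotientGroup.ker_mk'])
    have hLF : L ≤ Cfsg.fittingSubgroup G := Cfsg.Agent.Lib.helper1.le_fitting hLn hLnil
    apply hLF
    rw [hL]
    refine ⟨hg, hcent g (fun p hp hne => ?_)⟩
    apply h p hp g hg
    exact Nat.Coprime.coprime_dvd_left (orderOf_dvd_of_pow_eq_one hga)
      (Nat.Coprime.pow_left a ((Nat.coprime_primes hqp hp).2 (Ne.symm hne)))
  -- every element of `G'` lies in `F(G)`
  have hall : ∀ n : ℕ, ∀ g ∈ commutator G, orderOf g = n → g ∈ Cfsg.fittingSubgroup G := by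
    intro n
    induction n using Nat.strong_induction_on with
    | _ n ih =>
      intro g hg hn
      by_cases h1 : n = 1
      · rw [h1] at hn
        rw [orderOf_eq_one_iff.1 hn]; exact Subgroup.one_mem _
      · have hpos : n ≠ 0 := by rw [← hn]; exact (orderOf_pos g).ne'
        obtain ⟨q, hqp, hqn⟩ := Nat.exists_prime_and_dvd h1
        obtain ⟨a, m, hm, hnm⟩ := Nat.exists_eq_pow_mul_and_not_dvd hpos q hqp.ne_one
        have ha : a ≠ 0 := by
          rintro rfl
          rw [pow_zero, one_mul] at hnm
          exact hm (hnm ▸ hqn)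
        have hmpos : 0 < m := by
          rcases Nat.eq_zero_or_pos m with h0 | h0
          · rw [h0, mul_zero] at hnm; exact absurd hnm hpos
          · exact h0
        have h2 : g ^ m ∈ Cfsg.fittingSubgroup G := by
          apply hqel q hqp (g ^ m) (Subgroup.pow_mem _ hg m) a
          rw [← pow_mul, mul_comm, ← hnm, ← hn, pow_orderOf_eq_one]
        have h3 : g ^ (q ^ a) ∈ Cfsg.fittingSubgroup G := by
          apply ih (orderOf (g ^ (q ^ a))) ?_ _ (Subgroup.pow_mem _ hg _) rfl
          have hd : orderOf (g ^ (q ^ a)) ∣ m := by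
            apply orderOf_dvd_of_pow_eq_one
            rw [← pow_mul, ← hnm, ← hn, pow_orderOf_eq_one]
          have hle := Nat.le_of_dvd hmpos hd
          have hlt : m < n := by
            rw [hnm]
            have : 1 < q ^ a := Nat.one_lt_pow ha hqp.one_lt
            nlinarith
          omega
        have hcop : Nat.Coprime (q ^ a) m :=
          Nat.Coprime.pow_left a ((Nat.Prime.coprime_iff_not_dvd hqp).2 hm)
        have hbez := Nat.gcd_eq_gcd_ab (q ^ a) m
        rw [hcop] at hbez
        have hgeq : g = (g ^ (q ^ a)) ^ (Nat.gcdA (q ^ a) m) * (g ^ m) ^ (Nat.gcdB (q ^ a) m) := by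
          rw [← zpow_natCast g (q ^ a), ← zpow_natCast g m, ← zpow_mul, ← zpow_mul, ← zpow_add,
            ← hbez]
          simp
        rw [hgeq]
        exact Subgroup.mul_mem _ (Subgroup.zpow_mem _ h3 _) (Subgroup.zpow_mem _ h2 _)
  have hKF : commutator G ≤ Cfsg.fittingSubgroup G := fun g hg => hall _ g hg rfl
  refine ⟨hKF, ?_⟩
  haveI := hFnil
  exact Subgroup.isNilpotent_of_ker_le_center (Subgroup.inclusion hKF)
    (by rw [Subgroup.ker_inclusion]; exact bot_le)

end Cfsg.Agent.Lib.helper7.S1451B
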