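import Mathlib
import Cfsg.Prelude.Def_OddOrderLocal
import Cfsg.Agent.Lib.helper7.Stab
import Cfsg.Agent.Lib.helper7.Central
import Cfsg.Agent.Lib.helper9.PPrimeCore

set_option linter.style.haveILetI false
set_option linter.unusedSectionVars false

namespace Cfsg.Agent.Lib.helper7

open Subgroup Cfsg.Agent.Lib.helper8 Cfsg.Agent.Lib.helper9

universe u

/-- `M_F` is a Hall subgroup. -/
theorem fittingHall_coprime (X : Type u) [Group X] [Finite X] :
    (Nat.card (Cfsg.fittingHall X)).Coprime (Cfsg.fittingHall X).index := by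
  by_contra hn
  obtain ⟨q, hq, hq1, hq2⟩ := Nat.Prime.not_coprime_iff_dvd.mp hn
  by_cases hex : ∃ N : Subgroup X, (N.Normal ∧ Group.IsNilpotent N ∧ (Nat.card N).Coprime N.index) ∧
      q ∣ Nat.card N
  · obtain ⟨N, hN, hqN⟩ := hex
    have hle : N ≤ Cfsg.fittingHall X := le_sSup hN
    have h1 : (Cfsg.fittingHall X).index ∣ N.index := Subgroup.index_dvd_of_le hle
    have h2 : q ∣ Nat.gcd (Nat.card N) N.index := Nat.dvd_gcd hqN (hq2.trans h1)
    rw [hN.2.2] at h2
    exact hq.one_lt.ne' (Nat.dvd_one.mp h2)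
  · simp only [not_exists, not_and] at hex
    have hle : Cfsg.fittingHall X ≤ Cfsg.pPrimeCore q X := by
      apply sSup_le
      intro N hN
      exact le_pPrimeCore hN.1 ((Nat.Coprime.symm ((Nat.Prime.coprime_iff_not_dvd hq).mpr
        (hex N hN))))
    have h1 : q ∣ Nat.card (Cfsg.pPrimeCore q X) := hq1.trans (Subgroup.card_dvd_of_le hle)
    have h2 := pPrimeCore_coprime q X
    exact (Nat.Prime.coprime_iff_not_dvd hq).mp h2.symm h1

/-- An element whose order is coprime to the index of a normal subgroup lies in it. -/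
theorem mem_of_pow_eq_one_of_coprime_index {X : Type u} [Group X] [Finite X] (N : Subgroup X)
    [N.Normal] (x : X) (a : ℕ) (hx : x ^ a = 1) (hcop : a.Coprime N.index) : x ∈ N := by
  have h1 : (QuotientGroup.mk' N x) ^ a = 1 := by rw [← map_pow, hx, map_one]
  have h2 : orderOf (QuotientGroup.mk' N x) ∣ a := orderOf_dvd_of_pow_eq_one h1
  have h3 : orderOf (QuotientGroup.mk' N x) ∣ N.index := by
    rw [Subgroup.index_eq_card]; exact orderOf_dvd_natCard _
  have h4 : orderOf (QuotientGroup.mk' N x) ∣ Nat.gcd a N.index := Nat.dvd_gcd h2 h3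
  rw [hcop] at h4
  have h5 : QuotientGroup.mk' N x = 1 := orderOf_eq_one_iff.mp (Nat.dvd_one.mp h4)
  rwa [← MonoidHom.mem_ker, QuotientGroup.ker_mk'] at h5

theorem card_of_isComplIn {G : Type u} [Group G] [Finite G] {A B M : Subgroup G}
    (h : Cfsg.IsComplIn A B M) : Nat.card M = Nat.card A * Nat.card B := by
  obtain ⟨hA, hB, hd, hp⟩ := h
  rw [← Nat.card_prod]
  symm
  apply Nat.card_congr
  refine Equiv.ofBijective (fun ab : A × B => (⟨(ab.1 : G) * (ab.2 : G),
    mul_mem (hA ab.1.2) (hB ab.2.2)⟩ : M)) ⟨?_, ?_⟩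
  · rintro ⟨⟨a, ha⟩, ⟨b, hb⟩⟩ ⟨⟨a', ha'⟩, ⟨b', hb'⟩⟩ heq
    have h1 : a * b = a' * b' := congrArg Subtype.val heq
    have h2 : a'⁻¹ * a = b' * b⁻¹ := by
      calc a'⁻¹ * a = a'⁻¹ * (a * b) * b⁻¹ := by group
        _ = a'⁻¹ * (a' * b') * b⁻¹ := by rw [h1]
        _ = b' * b⁻¹ := by group
    have h3 : a'⁻¹ * a ∈ A ⊓ B := Subgroup.mem_inf.mpr ⟨mul_mem (inv_mem ha') ha,
      h2 ▸ mul_mem hb' (inv_mem hb)⟩
    rw [hd, Subgroup.mem_bot] at h3
    have h4 : a = a' := by
      have := congrArg (fun t => a' * t) h3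
      simpa using this
    have h5 : b = b' := by
      rw [h4] at h1
      exact mul_left_cancel h1
    subst h4; subst h5; rfl
  · rintro ⟨m, hm⟩
    obtain ⟨a, ha, b, hb, rfl⟩ := hp m hm
    exact ⟨(⟨a, ha⟩, ⟨b, hb⟩), rfl⟩

section

variable {G : Type u} [Group G] [Finite G] (M : Subgroup G)

theorem fittingHallOf_le : Cfsg.fittingHallOf M ≤ M := Subgroup.map_subtype_le _

theorem fittingHallOf_subgroupOf :
    (Cfsg.fittingHallOf M).subgroupOf M = Cfsg.fittingHall M :=
  Subgroup.comap_map_eq_self_of_injective (Subgroup.subtype_injective M) _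

theorem le_normalizer_fittingHallOf : M ≤ normalizer (Cfsg.fittingHallOf M : Set G) := by
  apply le_normalizer_of_conj_mem
  rintro m hm _ ⟨h, hh, rfl⟩
  have hn : (Cfsg.fittingHall M).Normal := Cfsg.fittingHall_normal M
  exact ⟨⟨m, hm⟩ * h * ⟨m, hm⟩⁻¹, hn.conj_mem h hh ⟨m, hm⟩, rfl⟩

theorem fittingHallOf_coprime :
    (Nat.card (Cfsg.fittingHallOf M)).Coprime ((Cfsg.fittingHallOf M).relIndex M) := by
  have h1 := fittingHall_coprime M
  have h2 : Nat.card (Cfsg.fittingHallOf M) = Nat.card (Cfsg.fittingHall M) :=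
    Subgroup.card_map_of_injective (Subgroup.subtype_injective M)
  rw [Subgroup.relIndex, fittingHallOf_subgroupOf, h2]
  exact h1

theorem mem_fittingHallOf_of_pow {x : G} (hx : x ∈ M) (a : ℕ) (hxa : x ^ a = 1)
    (hcop : a.Coprime ((Cfsg.fittingHallOf M).relIndex M)) : x ∈ Cfsg.fittingHallOf M := by
  rw [Subgroup.relIndex, fittingHallOf_subgroupOf] at hcop
  have := mem_of_pow_eq_one_of_coprime_index (Cfsg.fittingHall M) (⟨x, hx⟩ : M) a
    (Subtype.ext (by simpa using hxa)) hcop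
  exact ⟨⟨x, hx⟩, this, rfl⟩

/-- A subgroup of `M` that is normal in `M`, nilpotent, and Hall in `M` lies in `M_F`. -/
theorem le_fittingHallOf {U : Subgroup G} (hUM : U ≤ M) (hn : M ≤ normalizer (U : Set G))
    (hnil : Group.IsNilpotent U) (hcop : (Nat.card U).Coprime (U.relIndex M)) :
    U ≤ Cfsg.fittingHallOf M := by
  have h1 : (U.subgroupOf M).Normal := (Subgroup.normal_subgroupOf_iff_le_normalizer hUM).mpr hn
  have h2 : Group.IsNilpotent (U.subgroupOf M) :=
    (Group.nilpotent_of_mulEquiv (Subgroup.subgroupOfEquivOfLe hUM).symm)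
  have h3 : (Nat.card (U.subgroupOf M)).Coprime (U.subgroupOf M).index := by
    rw [card_subgroupOf_of_le hUM]; exact hcop
  have h4 : U.subgroupOf M ≤ Cfsg.fittingHall M := le_sSup ⟨h1, h2, h3⟩
  intro u hu
  exact ⟨⟨u, hUM hu⟩, h4 (by rw [mem_subgroupOf]; exact hu), rfl⟩

end

/-- S1387: `F(M) = M_F (U ∩ C(M_F))` for type-P data. -/
theorem typeP_fitting_eq {G : Type u} [Group G] [Finite G] (M W₁ U W₂ : Subgroup G)
    (hP : Cfsg.IsTypePWith M W₁ U W₂) :
    Cfsg.fittingOf M = Cfsg.fittingHallOf M ⊔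
      (U ⊓ Subgroup.centralizer (Cfsg.fittingHallOf M : Set G)) := by
  set H := Cfsg.fittingHallOf M with hH
  obtain ⟨hHM', hUM', hHU, hprod⟩ := hP.U_compl
  have hM'M : ⁅M, M⁆ ≤ M := Subgroup.commutator_le_self M
  rw [← hP.fitting_eq]
  apply le_antisymm
  · refine sup_le le_sup_left ?_
    intro c hc
    obtain ⟨hcM, hcC⟩ := Subgroup.mem_inf.mp hc
    have hcF : c ∈ ⁅M, M⁆ := hP.fitting_le (hP.fitting_eq ▸ (le_sup_right : _ ≤ H ⊔ _) hc)
    set a := Nat.card H with ha
    set b := H.relIndex M with hb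
    have hcop : a.Coprime b := fittingHallOf_coprime M
    have hab : a * b = Nat.card M := card_mul_relIndex_of_le (fittingHallOf_le M)
    have hcab : c ^ (a * b) = 1 := by
      rw [hab]
      have := pow_card_eq_one' (G := M) (x := ⟨c, hcM⟩)
      exact congrArg Subtype.val this
    -- Bezout
    have hbez : (a : ℤ) * Nat.gcdA a b + b * Nat.gcdB a b = 1 := by
      have := Nat.gcd_eq_gcd_ab a b
      rw [hcop] at this
      exact_mod_cast this.symm
    set c1 : G := c ^ ((b : ℤ) * Nat.gcdB a b) with hc1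
    set c2 : G := c ^ ((a : ℤ) * Nat.gcdA a b) with hc2
    have hcc : c = c1 * c2 := by
      rw [hc1, hc2, ← zpow_add, add_comm, hbez, zpow_one]
    have hc1a : c1 ^ a = 1 := by
      rw [hc1, ← zpow_natCast, ← zpow_mul]
      have : (b : ℤ) * Nat.gcdB a b * a = ((a * b : ℕ) : ℤ) * Nat.gcdB a b := by push_cast; ring
      rw [this, zpow_mul, zpow_natCast, hcab, one_zpow]
    have hc2b : c2 ^ b = 1 := by
      rw [hc2, ← zpow_natCast, ← zpow_mul]
      have : (a : ℤ) * Nat.gcdA a b * b = ((a * b : ℕ) : ℤ) * Nat.gcdA a b := by push_cast; ring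
      rw [this, zpow_mul, zpow_natCast, hcab, one_zpow]
    have hc1H : c1 ∈ H := mem_fittingHallOf_of_pow M (zpow_mem hcM _) a hc1a hcop
    have hc2C : c2 ∈ centralizer (H : Set G) := zpow_mem hcC _
    have hc2M' : c2 ∈ ⁅M, M⁆ := zpow_mem hcF _
    obtain ⟨h, hh, u, hu, hhu⟩ := hprod c2 hc2M'
    have hcomm : h * c2 = c2 * h := (mem_centralizer_iff.mp hc2C h hh)
    have hu' : u = h⁻¹ * c2 := by rw [hhu]; group
    have hub : u ^ b = (h ^ b)⁻¹ := by
      have hc' : Commute h⁻¹ c2 := (Commute.inv_left (show Commute h c2 from hcomm))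
      rw [hu', hc'.mul_pow, hc2b, mul_one, inv_pow]
    have hhb : h ^ b ∈ H ⊓ U := Subgroup.mem_inf.mpr ⟨pow_mem hh b, by
      have := inv_mem (pow_mem hu b)
      rw [hub, inv_inv] at this
      exact this⟩
    rw [hHU, Subgroup.mem_bot] at hhb
    have hha : h ^ a = 1 := by
      have := pow_card_eq_one' (G := H) (x := ⟨h, hh⟩)
      exact congrArg Subtype.val this
    have hh1 : h = 1 := by
      have h5 : orderOf h ∣ Nat.gcd a b :=
        Nat.dvd_gcd (orderOf_dvd_of_pow_eq_one hha) (orderOf_dvd_of_pow_eq_one hhb)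
      rw [hcop] at h5
      exact orderOf_eq_one_iff.mp (Nat.dvd_one.mp h5)
    have hc2u : c2 = u := by rw [hhu, hh1, one_mul]
    rw [hcc]
    exact mul_mem ((le_sup_left : H ≤ H ⊔ _) hc1H)
      ((le_sup_right : _ ≤ H ⊔ _) (Subgroup.mem_inf.mpr ⟨hc2u ▸ hu, hc2C⟩))
  · exact sup_le_sup_left (inf_le_inf_right _ (hUM'.trans hM'M)) _

end Cfsg.Agent.Lib.helper7
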