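import Cfsg.Agent.Lib.helper7.Yoshida
import Cfsg.Agent.Lib.lead.Tate
import Cfsg.Prelude.Def_BaumannBlocks

set_option autoImplicit false

namespace Cfsg.Agent.Lib.helper7.Yoshida

section Res

variable {G : Type*} [Group G] [Finite G] {p : ℕ} [Fact p.Prime]

theorem pres_map_le (N : Subgroup G) :
    (Cfsg.pResidual p ↥N).map N.subtype ≤ Cfsg.pResidual p G := by
  rw [Subgroup.map_le_iff_le_comap]
  unfold Cfsg.pResidual
  rw [Subgroup.closure_le]
  intro g hg
  apply Subgroup.subset_closure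
  show Nat.Coprime (orderOf (g : G)) p
  rw [Subgroup.orderOf_coe]
  exact hg

/-- control of transfer gives control of the `p`-residual -/
theorem pres_eq (P : Sylow p G) (Q : Subgroup G)
    (hQ : Cfsg.IsWeaklyClosed Q (P : Subgroup G))
    (hstar : ∀ x ∈ (P : Subgroup G), ∀ z ∈ Q, ∀ W₀ : Subgroup ↥Q, IsCoatom W₀ →
      (fun y : G => y⁻¹ * z⁻¹ * y * z)^[p - 1] x ∈ W₀.map Q.subtype →
      (fun y : G => y⁻¹ * z⁻¹ * y * z)^[p - 1] x ∈
        ((frattini ↥W₀).map W₀.subtype).map Q.subtype) :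
    Cfsg.pResidualOf p (Subgroup.normalizer (Q : Set G)) =
      Cfsg.pResidual p G ⊓ Subgroup.normalizer (Q : Set G) := by
  have hfoc := focal_le P Q hQ hstar
  have hPN := wc_le_normalizer P Q hQ
  obtain ⟨N, hN⟩ : ∃ N : Subgroup G, N = Subgroup.normalizer (Q : Set G) := ⟨_, rfl⟩
  rw [← hN] at hfoc hPN ⊢
  have htate := Cfsg.Agent.Lib.lead.tate P N hPN (by rw [inf_comm]; exact hfoc)
  unfold Cfsg.pResidualOf
  apply le_antisymm
  · exact le_inf (pres_map_le N) (Subgroup.map_subtype_le _)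
  · intro n hn
    obtain ⟨hnG, hnN⟩ := Subgroup.mem_inf.mp hn
    have hsup := Cfsg.Agent.Lib.lead.pResidual_sup_sylow_eq_top (P.subtype hPN)
    haveI hnorm : (Cfsg.pResidual p ↥N).Normal := Cfsg.Agent.S0075.pResidual_normal p
    have h1 : (⟨n, hnN⟩ : ↥N) ∈ ((Cfsg.pResidual p ↥N ⊔ ((P.subtype hPN : Sylow p ↥N) : Subgroup ↥N) :
        Subgroup ↥N) : Set ↥N) := by
      rw [hsup]; exact Subgroup.mem_top _
    rw [Subgroup.normal_mul] at h1
    obtain ⟨a, ha, b, hb, hab⟩ := Set.mem_mul.mp h1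
    have haG : (a : G) ∈ Cfsg.pResidual p G := pres_map_le N ⟨a, ha, rfl⟩
    have hbP : (b : G) ∈ (P : Subgroup G) := by
      have h2 : b ∈ ((P.subtype hPN : Sylow p ↥N) : Subgroup ↥N) := hb
      rw [Sylow.coe_subtype, Subgroup.mem_subgroupOf] at h2
      exact h2
    have hn' : n = (a : G) * (b : G) := by
      have := congrArg Subtype.val hab
      exact this.symm
    have hbG : (b : G) ∈ Cfsg.pResidual p G := by
      have h3 : (b : G) = (a : G)⁻¹ * n := by rw [hn']; group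
      rw [h3]
      exact Subgroup.mul_mem _ (Subgroup.inv_mem _ haG) hnG
    have hb' : (b : G) ∈ (Cfsg.pResidual p ↥N).map N.subtype := htate ⟨hbG, hbP⟩
    rw [hn']
    exact Subgroup.mul_mem _ ⟨a, ha, rfl⟩ hb'

end Res

end Cfsg.Agent.Lib.helper7.Yoshida
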